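import Cfsg.Agent.H613.KS.Defs
import Cfsg.Agent.H631.TitsD.Data

/-!
# S4577, row Tits (helper289)

* `nocfg_of_card` : no configuration, if `2^5` divides `|S|` and 16 does not divide `|C(y)|` for `y` of odd prime order;
* `S_tits`.
-/

set_option autoImplicit false

open Cfsg Subgroup Cfsg.Agent.H613.KS

namespace Cfsg.Agent.H289.KS

universe u

variable {S : Type u} [Group S] [Finite S]

/-- **No configuration, by the orders of the centralizers.** -/
theorem nocfg_of_card (h32 : 2 ^ 5 ∣ Nat.card S)
    (h16 : ∀ p : ℕ, p.Prime → p ≠ 2 → ∀ y : S, orderOf y = p → ¬ 2 ^ 4 ∣ Nat.card (centralizer ({y} : Set S))) :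
    NoCfg S := by
  intro D x h
  have f2 : Fact (Nat.Prime 2) := ⟨Nat.prime_two⟩
  by_cases hx : x = 1
  · subst hx
    obtain ⟨P⟩ : Nonempty (Sylow 2 S) := inferInstance
    obtain ⟨c, -, hc⟩ := h.syl P P.isPGroup' (by intro q _; rw [mul_one, one_mul])
    have hle : Nat.card (P : Subgroup S) ≤ 16 := by
      rw [← h.e16.card]
      refine Nat.card_le_card_of_injective (fun q : (P : Subgroup S) => (⟨c * q * c⁻¹, hc q q.2⟩ : D)) ?_
      intro a b hab
      have h1 : c * (a : S) * c⁻¹ = c * b * c⁻¹ := congrArg Subtype.val hab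
      exact Subtype.ext (mul_left_cancel (mul_right_cancel h1))
    have h1 : 2 ^ 5 ∣ Nat.card (P : Subgroup S) := by
      rw [P.card_eq_multiplicity]
      exact pow_dvd_pow 2 ((Nat.prime_two.pow_dvd_iff_le_factorization Nat.card_pos.ne').1 h32)
    have h2 := Nat.le_of_dvd Nat.card_pos h1
    omega
  · obtain ⟨p, hp, hpx⟩ := Nat.exists_prime_and_dvd (n := orderOf x) (fun h1 => hx (orderOf_eq_one_iff.1 h1))
    have hp2 : p ≠ 2 := by
      rintro rfl
      exact (Nat.not_even_iff_odd.2 h.odd) (even_iff_two_dvd.2 hpx)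
    have ho : orderOf (x ^ (orderOf x / p)) = p := orderOf_pow_orderOf_div (orderOf_pos x).ne' hpx
    refine h16 p hp hp2 _ ho ?_
    have h1 : D ≤ centralizer ({x ^ (orderOf x / p)} : Set S) := by
      intro d hd
      rw [mem_centralizer_singleton_iff]
      have : Commute d x := h.comm d hd
      exact (this.pow_right _).eq
    have h2 := Subgroup.card_dvd_of_le h1
    rw [h.e16.card] at h2
    exact h2

/-- **The Tits group.** -/
theorem S_tits (h : Lie.IsoTits S) : NoCfg S := by
  have T := H631.TitsD.td_of h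
  refine nocfg_of_card (by rw [T.card]; norm_num) fun p hp hp2 y hy => ?_
  have h1 : p ∣ 17971200 := by
    rw [← T.card, ← hy]
    exact orderOf_dvd_natCard y
  have h2 : p = 3 ∨ p = 5 ∨ p = 13 := by
    have h3 : p ∈ Nat.primeFactors (17971200) := Nat.mem_primeFactors.2 ⟨hp, h1, by norm_num⟩
    have h4 : Nat.primeFactors 17971200 = {2, 3, 5, 13} := by
      rw [show 17971200 = 2 ^ 11 * (3 ^ 3 * (5 ^ 2 * 13)) by norm_num, Nat.primeFactors_mul (by norm_num) (by norm_num),
        Nat.primeFactors_mul (by norm_num) (by norm_num), Nat.primeFactors_mul (by norm_num) (by norm_num),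
        Nat.primeFactors_prime_pow (by norm_num) Nat.prime_two, Nat.primeFactors_prime_pow (by norm_num) Nat.prime_three,
        Nat.primeFactors_prime_pow (by norm_num) Nat.prime_five, Nat.Prime.primeFactors (by norm_num : Nat.Prime 13)]
      rfl
    rw [h4] at h3
    simp only [Finset.mem_insert, Finset.mem_singleton] at h3
    rcases h3 with h3 | h3 | h3 | h3
    · exact absurd h3 hp2
    · exact Or.inl h3
    · exact Or.inr (Or.inl h3)
    · exact Or.inr (Or.inr h3)
  rcases h2 with rfl | rfl | rfl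
  · rw [T.c3 y hy]; norm_num
  · rw [T.c5 y hy]; norm_num
  · rw [T.c13 y hy]; norm_num

end Cfsg.Agent.H289.KS
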